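import Mathlib
import Cfsg.Agent.Lib.Helper80.MinSU2.Defs
import Cfsg.Agent.Lib.Helper28.MinSU.S1d
import Cfsg.Agent.Lib.Helper62.MinSU.oS1d
import Cfsg.Agent.Lib.Helper65.MinSU2.tNUM

/-! [tS1d] of the S2153 farm. -/

set_option autoImplicit false

namespace Cfsg.Agent.Lib.Helper62.MinSU2

open Matrix Module Cfsg.Agent.Lib.Helper13 Cfsg.Agent.Lib.Helper5 Cfsg.Agent.Lib.Helper57.RootSU
  Cfsg.Agent.Lib.Helper83.MinSU Cfsg.Agent.Lib.Helper28.MinSU Cfsg.Agent.Lib.Helper80.MinSU2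
  Cfsg.Agent.Lib.Helper62.MinSU.O

variable {F : Type*} [Field F] [Fintype F] {q m n : ℕ}

lemma card_GU_succ_odd (hF : Fintype.card F = q ^ 2) (k : ℕ) (hk : Odd k) :
    Nat.card (Cfsg.GU (k + 1) F q) = Nat.card (Cfsg.GU k F q) * (q ^ k * (q ^ (k + 1) - 1)) := by
  rw [card_GU hF (k + 1), card_GU hF k, Finset.prod_range_succ,
    if_neg (Nat.not_even_iff_odd.2 hk)]
  have e : (k + 1) * (k + 1 - 1) / 2 = k * (k - 1) / 2 + k := by
    have : (k + 1) * (k + 1 - 1) = k * (k - 1) + k * 2 := by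
      cases k with
      | zero => rfl
      | succ k => simp only [Nat.add_sub_cancel]; ring
    rw [this, Nat.add_mul_div_right _ _ (by norm_num)]
  rw [e, pow_add]
  ring

lemma ME_le (he : Even n) (hn : 1 ≤ n) : ME n * 3 ≤ 2 ^ (2 * n - 1) := by
  rw [Cfsg.Agent.Lib.Helper65.MinSU2.ME_mul he]
  calc 2 ^ (n - 1) * (2 ^ n - 1) ≤ 2 ^ (n - 1) * 2 ^ n := Nat.mul_le_mul le_rfl (Nat.sub_le _ _)
    _ = 2 ^ (2 * n - 1) := by rw [← pow_add]; congr 1; omega

lemma t_gen (n e c N I : ℕ) (hN : N * 3 ≤ 2 ^ (2 * n - 1)) (hI : 2 ^ e ≤ I * (2 + 1) ^ 2)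
    (hc : c * 3 * 2 ^ (2 * n - 1) ≤ 2 ^ e) : c * N ≤ I := by
  have hpos : 0 < (2 + 1) ^ 2 := by norm_num
  apply Nat.le_of_mul_le_mul_right _ hpos
  calc c * N * (2 + 1) ^ 2 = c * 3 * (N * 3) := by ring
    _ ≤ c * 3 * 2 ^ (2 * n - 1) := Nat.mul_le_mul le_rfl hN
    _ ≤ 2 ^ e := hc
    _ ≤ I * (2 + 1) ^ 2 := hI

lemma t_exact (k I g N : ℕ) (hg : 0 < g)
    (h : I * ((2 + 1) * g) = g * (2 ^ k * (2 ^ (k + 1) - 1)))
    (hN : N * 3 = 2 ^ k * (2 ^ (k + 1) - 1)) : N ≤ I := by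
  have h1 : I * 3 = 2 ^ k * (2 ^ (k + 1) - 1) := by
    apply Nat.eq_of_mul_eq_mul_left hg
    rw [← h]; ring
  omega

/-- [tS1d] -/
theorem index_stab_nondeg (hF : Fintype.card F = 2 ^ 2) (hn : 6 ≤ n) (he : Even n)
    (W : Submodule F (Fin n → F)) (hW0 : W ≠ ⊥) (hW1 : W ≠ ⊤) (hW : Nondeg 2 W)
    (K : Subgroup (Cfsg.SU n F 2)) (hK : ∀ k ∈ K, ∀ x ∈ W, k.1.1 *ᵥ x ∈ W) :
    ME n ≤ K.index ∧
      (3 ≤ Module.finrank F W → Module.finrank F W + 3 ≤ n → n * ME n ≤ K.index) := by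
  have hle := index_St_le W K hK
  have h1 := index_St_mul hF (by omega) W
  rw [card_su_stab_nondeg_mul hF W hW0 hW] at h1
  set j := finrank F W with hj
  have hjpos : 0 < j := by
    rw [hj, Module.finrank_pos_iff, Submodule.nontrivial_iff_ne_bot]
    exact hW0
  have hjlt : j < n := by
    have := Submodule.finrank_lt hW1
    rwa [Module.finrank_fintype_fun_eq_card, Fintype.card_fin] at this
  obtain ⟨l, hl⟩ : ∃ l, n = j + l := ⟨n - j, by omega⟩
  have hnl : n - j = l := by omega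
  rw [hnl] at h1
  have hb := s1d_arith 2 j l _ _ _ _ (by omega) h1 (by rw [← hl]; exact (card_GU_bounds hF n).1)
    (card_GU_bounds hF j).2 (card_GU_bounds hF l).2
  have hN := ME_le he (by omega : 1 ≤ n)
  obtain ⟨k, hk⟩ : ∃ k, n = k + 1 := ⟨n - 1, by omega⟩
  have hko : Odd k := by
    rcases Nat.even_or_odd k with h | h
    · exfalso
      have : Odd n := by rw [hk]; exact h.add_one
      exact (Nat.not_even_iff_odd.2 this) he
    · exact h
  have hNeq : ME n * 3 = 2 ^ k * (2 ^ (k + 1) - 1) := by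
    rw [Cfsg.Agent.Lib.Helper65.MinSU2.ME_mul he, hk, Nat.add_sub_cancel]
  have hgpos : 0 < Nat.card (Cfsg.GU k F 2) :=
    lt_of_lt_of_le (Nat.pow_pos (by omega)) (card_GU_bounds hF k).1
  have hGn : Nat.card (Cfsg.GU n F 2)
      = Nat.card (Cfsg.GU k F 2) * (2 ^ k * (2 ^ (k + 1) - 1)) := by
    rw [hk]; exact card_GU_succ_odd hF k hko
  constructor
  · refine le_trans ?_ hle
    by_cases hj1 : j = 1
    · have hlk : l = k := by omega
      rw [hj1, hlk, card_GU_one hF, hGn] at h1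
      exact t_exact k _ _ _ hgpos h1 hNeq
    by_cases hl1 : l = 1
    · have hjk : j = k := by omega
      rw [hl1, hjk, card_GU_one hF, hGn, mul_comm _ (2 + 1)] at h1
      exact t_exact k _ _ _ hgpos h1 hNeq
    have h3 := t_gen n _ 1 _ _ hN hb ?_
    · rwa [one_mul] at h3
    · calc 1 * 3 * 2 ^ (2 * n - 1) ≤ 2 ^ 2 * 2 ^ (2 * n - 1) :=
            Nat.mul_le_mul (by norm_num) le_rfl
        _ = 2 ^ (2 + (2 * n - 1)) := by rw [← pow_add]
        _ ≤ 2 ^ (2 * (j * l) + 2) := by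
            apply Nat.pow_le_pow_right (by omega)
            have : 2 * (j + l) ≤ j * l + 4 := s1d_aux3 j l (by omega) (by omega)
            omega
  · intro h3 h3'
    refine le_trans ?_ hle
    refine t_gen n _ n _ _ hN hb ?_
    have hnq : n ≤ 2 ^ n := (Nat.lt_pow_self (by omega)).le
    calc n * 3 * 2 ^ (2 * n - 1) ≤ 2 ^ n * 2 ^ 2 * 2 ^ (2 * n - 1) :=
          Nat.mul_le_mul (Nat.mul_le_mul hnq (by norm_num)) le_rfl
      _ = 2 ^ (n + 2 + (2 * n - 1)) := by rw [← pow_add, ← pow_add]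
      _ ≤ 2 ^ (2 * (j * l) + 2) := by
          apply Nat.pow_le_pow_right (by omega)
          have : 3 * (j + l) ≤ j * l + 9 := s1d_aux2 j l h3 (by omega)
          omega

end Cfsg.Agent.Lib.Helper62.MinSU2
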