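import Mathlib
import Cfsg.Agent.Lib.Helper80.MinSU2.Defs
import Cfsg.Agent.Lib.Helper62.MinSU2.tS1pre
import Cfsg.Agent.Lib.Helper62.MinSU2.tS1d
import Cfsg.Agent.Lib.Helper65.MinSU2.tS1c

/-! [tS1] of the S2153 farm. -/

set_option autoImplicit false

namespace Cfsg.Agent.Lib.Helper62.MinSU2

open Matrix Cfsg.Agent.Lib.Helper83.MinSU Cfsg.Agent.Lib.Helper80.MinSU2

variable {F : Type*} [Field F] [Fintype F] {m n : ℕ}

/-- [tS1] -/
theorem step1 (hF : Fintype.card F = 2 ^ 2) (hn : 6 ≤ n) (he : Even n)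
    (K : Subgroup (Cfsg.SU n F 2)) (hK : K ≠ ⊤) (hB : HasBig hF K) :
    ME n ≤ K.index :=
  step1_of (ME n) hF (by omega)
    (fun R h1 h2 K h3 => Cfsg.Agent.Lib.Helper65.MinSU2.index_stab_ti hF hn he R h1 h2 K h3)
    (fun W h1 h2 h3 K h4 => index_stab_nondeg hF hn he W h1 h2 h3 K h4) K hK hB

end Cfsg.Agent.Lib.Helper62.MinSU2
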